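import Mathlib

set_option autoImplicit false

namespace Cfsg.Agent.Lib.Helper7.GlS3

open Subgroup

/-- iterated derived subgroups of `K` -/
def dser {X : Type*} [Group X] (K : Subgroup X) : ℕ → Subgroup X
  | 0 => K
  | n + 1 => ⁅dser K n, dser K n⁆

theorem dser_normal {X : Type*} [Group X] (K : Subgroup X) (hK : K.Normal) (n : ℕ) :
    (dser K n).Normal := by
  induction n with
  | zero => exact hK
  | succ n ih =>
    have := ih
    exact (inferInstance : (⁅dser K n, dser K n⁆).Normal)

theorem dser_le {X : Type*} [Group X] (K : Subgroup X) (hK : K.Normal) (n : ℕ) :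
    dser K n ≤ K := by
  induction n with
  | zero => exact le_rfl
  | succ n ih =>
    have := dser_normal K hK n
    exact (commutator_le_left (dser K n) (dser K n)).trans ih

theorem dser_le_derivedSeries {X : Type*} [Group X] (K : Subgroup X) (n : ℕ) :
    dser K n ≤ derivedSeries X n := by
  induction n with
  | zero => exact le_top
  | succ n ih => exact commutator_mono ih ih

theorem exists_L {X : Type*} [Group X] [Finite X] [Group.IsSolvable X] (K C : Subgroup X)
    (hK : K.Normal) (hKC : ¬ K ≤ C) :
    ∃ L : Subgroup X, L.Normal ∧ L ≤ K ∧ ¬ L ≤ C ∧ ⁅L, L⁆ ≤ C := by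
  classical
  obtain ⟨n, hn⟩ := (Group.isSolvable_def X).mp inferInstance
  have hex : ∃ n, dser K n ≤ C := ⟨n, (dser_le_derivedSeries K n).trans (hn ▸ bot_le)⟩
  have hpos : Nat.find hex ≠ 0 := by
    intro h0
    have := Nat.find_spec hex
    rw [h0] at this
    exact hKC this
  obtain ⟨m, hm⟩ := Nat.exists_eq_succ_of_ne_zero hpos
  refine ⟨dser K m, dser_normal K hK m, dser_le K hK m, ?_, ?_⟩
  · exact Nat.find_min hex (by omega)
  · have := Nat.find_spec hex
    rw [hm] at this
    exact this

end Cfsg.Agent.Lib.Helper7.GlS3
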