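import Mathlib

set_option autoImplicit false

namespace Cfsg.Agent.Lib.Helper7.GlS3

open Subgroup
open scoped commutatorElement Pointwise

theorem normal_sup {X : Type*} [Group X] [Finite X] (L D : Subgroup X) (hL : L.Normal)
    (hD : D.Normal) (hDL : D ≤ L) (hLL : ⁅L, L⁆ ≤ D) (r : ℕ) [Fact r.Prime] (P : Sylow r ↥L) :
    ((P : Subgroup ↥L).map L.subtype ⊔ D).Normal := by
  set R := (P : Subgroup ↥L).map L.subtype with hR
  have hRL : R ≤ L := map_subtype_le _
  -- conjugation by elements of L preserves R ⊔ D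
  have hl : ∀ l ∈ L, ∀ x ∈ R ⊔ D, l * x * l⁻¹ ∈ R ⊔ D := by
    intro l hl x hx
    have hxL : x ∈ L := (sup_le hRL hDL) hx
    have h1 : l * x * l⁻¹ = ⁅l, x⁆ * x := by
      rw [commutatorElement_def]; group
    rw [h1]
    exact mul_mem (mem_sup_right (hLL (commutator_mem_commutator hl hxL))) hx
  refine ⟨fun x hx g => ?_⟩
  -- the conjugate Sylow subgroup
  let φ : MulAut ↥L := MulAut.conjNormal g
  obtain ⟨l, hlP⟩ := MulAction.exists_smul_eq ↥L (φ • P) P
  have hgen : ∀ y ∈ R, g * y * g⁻¹ ∈ R ⊔ D := by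
    rintro _ ⟨y, hy, rfl⟩
    have h1 : φ y ∈ ((φ • P : Sylow r ↥L) : Subgroup ↥L) := by
      rw [Sylow.pointwise_smul_def]
      exact Subgroup.smul_mem_pointwise_smul y φ _ hy
    have h2 : l * φ y * l⁻¹ ∈ (P : Subgroup ↥L) := by
      have h3 : l * φ y * l⁻¹ ∈ ((l • (φ • P) : Sylow r ↥L) : Subgroup ↥L) := by
        rw [Sylow.smul_def, Sylow.pointwise_smul_def]
        exact Subgroup.smul_mem_pointwise_smul (φ y) (MulAut.conj l) _ h1
      rwa [hlP] at h3
    have h4 : (l : X) * (g * y * g⁻¹) * (l : X)⁻¹ ∈ R := ⟨_, h2, by simp [φ]⟩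
    have h5 := hl (l : X)⁻¹ (L.inv_mem l.2) _ (mem_sup_left h4)
    have h6 : (l : X)⁻¹ * ((l : X) * (g * y * g⁻¹) * (l : X)⁻¹) * ((l : X)⁻¹)⁻¹ = g * y * g⁻¹ := by
      group
    rw [h6] at h5
    exact h5
  have hle : R ⊔ D ≤ (R ⊔ D).comap (MulAut.conj g).toMonoidHom := by
    refine sup_le ?_ ?_
    · intro y hy
      exact hgen y hy
    · intro y hy
      exact mem_sup_right (hD.conj_mem y hy g)
  exact hle hx

end Cfsg.Agent.Lib.Helper7.GlS3
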