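import Mathlib
import Cfsg.Agent.Lib.Helper1.Nilpotent

set_option autoImplicit false

namespace Cfsg.Agent.Lib.Helper7.GlS3

open Subgroup

theorem exists_central_involution {X : Type*} [Group X] [Finite X] (T : Sylow 2 X)
    (U : Subgroup X) (hU : U.Normal) (hU2 : IsPGroup 2 U) (hne : U ≠ ⊥) :
    ∃ z ∈ U, z ≠ 1 ∧ z ^ 2 = 1 ∧ z ∈ (T : Subgroup X) ⊓ centralizer ((T : Subgroup X) : Set X) := by
  -- U ≤ T
  have hUT : U ≤ (T : Subgroup X) := by
    obtain ⟨S, hS⟩ := hU2.exists_le_sylow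
    obtain ⟨g, rfl⟩ := MulAction.exists_smul_eq X S T
    intro u hu
    rw [Sylow.coe_subgroup_smul, Subgroup.mem_pointwise_smul_iff_inv_smul_mem]
    apply hS
    have := hU.conj_mem u hu g⁻¹
    simpa [MulAut.smul_def, MulAut.conj_apply] using this
  -- work in ↥T
  have hnil : Group.IsNilpotent ↥(T : Subgroup X) := T.2.isNilpotent
  have hUn : (U.subgroupOf (T : Subgroup X)).Normal := inferInstance
  have hUne : U.subgroupOf (T : Subgroup X) ≠ ⊥ := by
    intro h
    apply hne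
    rw [subgroupOf_eq_bot, disjoint_iff, inf_eq_left.mpr hUT] at h
    exact h
  have h1 := Cfsg.Agent.Lib.Helper1.normal_inf_center_ne_bot hUne
  obtain ⟨⟨⟨x, hxT⟩, hx⟩, hx1'⟩ := Subgroup.ne_bot_iff_exists_ne_one.1 h1
  have hx1 : x ≠ 1 := fun h => hx1' (Subtype.ext (Subtype.ext h))
  have hxU : x ∈ U := mem_subgroupOf.mp hx.1
  have hxZ : ∀ y ∈ (T : Subgroup X), y * x = x * y := by
    intro y hy
    have := Subgroup.mem_center_iff.mp hx.2 ⟨y, hy⟩
    exact congrArg Subtype.val this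
  -- a power of x has order 2
  obtain ⟨k, hk⟩ := (hU2 ⟨x, hxU⟩)
  have hk' : x ^ 2 ^ k = 1 := by simpa using congrArg Subtype.val hk
  obtain ⟨m, hm⟩ := (Nat.dvd_prime_pow Nat.prime_two).mp (orderOf_dvd_of_pow_eq_one hk')
  have hm0 : m ≠ 0 := by
    rintro rfl
    apply hx1
    rw [pow_zero] at hm
    exact orderOf_eq_one_iff.mp hm.2
  obtain ⟨j, rfl⟩ := Nat.exists_eq_succ_of_ne_zero hm0
  refine ⟨x ^ 2 ^ j, U.pow_mem hxU _, ?_, ?_, mem_inf.mpr ⟨(T : Subgroup X).pow_mem hxT _, ?_⟩⟩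
  · intro h
    have := orderOf_dvd_of_pow_eq_one h
    rw [hm.2] at this
    have h2 := Nat.le_of_dvd (by positivity) this
    rw [pow_succ] at h2
    have : 0 < 2 ^ j := by positivity
    omega
  · rw [← pow_mul, ← pow_succ, ← hm.2, pow_orderOf_eq_one]
  · rw [mem_centralizer_iff]
    intro y hy
    have hc : Commute y x := hxZ y hy
    exact (hc.pow_right _)

theorem exists_sylow_not_le {X : Type*} [Group X] [Finite X] (L C : Subgroup X) (h : ¬ L ≤ C) :
    ∃ (r : ℕ) (_ : Fact r.Prime) (P : Sylow r ↥L), ¬ (P : Subgroup ↥L).map L.subtype ≤ C := by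
  by_contra hcon
  push Not at hcon
  apply h
  -- the subgroup C.subgroupOf L contains all Sylow subgroups of L
  have h1 : ∀ (r : ℕ) [Fact r.Prime] (P : Sylow r ↥L), (P : Subgroup ↥L) ≤ C.subgroupOf L := by
    intro r hr P x hx
    rw [mem_subgroupOf]
    exact hcon r hr P ⟨x, hx, rfl⟩
  have h2 : C.subgroupOf L = ⊤ := by
    apply Subgroup.eq_top_of_card_eq
    apply Nat.dvd_antisymm (Subgroup.card_subgroup_dvd_card _)
    rw [← Nat.factorization_prime_le_iff_dvd Nat.card_pos.ne' Nat.card_pos.ne']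
    intro r hr
    haveI : Fact r.Prime := ⟨hr⟩
    obtain ⟨P⟩ : Nonempty (Sylow r ↥L) := inferInstance
    have h3 := Subgroup.card_dvd_of_le (h1 r P)
    rw [Sylow.card_eq_multiplicity] at h3
    exact (Nat.Prime.pow_dvd_iff_le_factorization hr Nat.card_pos.ne').mp h3
  intro x hx
  have : (⟨x, hx⟩ : L) ∈ C.subgroupOf L := h2 ▸ mem_top _
  exact mem_subgroupOf.mp this

end Cfsg.Agent.Lib.Helper7.GlS3
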